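import Cfsg.Agent.Lib.Chev.Group.WeylGroup

/-! Deciding equality of words in the Coxeter groups of the seven types through the action on roots. -/
set_option autoImplicit false
set_option maxRecDepth 100000
open Cfsg.Lie

namespace CfsgLib.Chev.CoxeterWord

open CfsgLib.Chev CfsgLib.Chev.Checks

/-- extension of a matrix to all indices -/
def ext {n : ℕ} (M : CoxeterMatrix (Fin n)) (i j : ℕ) : ℕ :=
  if h : i < n then (if h' : j < n then M ⟨i, h⟩ ⟨j, h'⟩ else 1) else 1

/-- two words have the same action on the fundamental roots -/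
def same (D : ChevalleyDatum) (T : Tables.Tab) (l m : List ℕ) : Bool :=
  (List.range D.rank).all fun a => Orbit.follow T (l ++ m.reverse).reverse (D.simple a) == D.simple a

theorem prod_reverse {n : ℕ} (M : CoxeterMatrix (Fin n)) (l : List (Fin n)) :
    (l.reverse.map M.simple).prod = ((l.map M.simple).prod)⁻¹ := by
  induction l with
  | nil => simp
  | cons a l ih =>
    have ha : (M.simple a)⁻¹ = M.simple a := by
      simpa using (M.toCoxeterSystem.inv_simple a)
    rw [List.reverse_cons, List.map_append, List.prod_append, ih, List.map_singleton, List.prod_singleton,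
      List.map_cons, List.prod_cons, mul_inv_rev, ha]

variable {D : ChevalleyDatum}

theorem eq_one_iff (hD : D ∈ dataList) {T : Tables.Tab} (hT : Tables.Valid D T) (M : CoxeterMatrix (Fin D.rank))
    (hok : WeylGroup.matrixOK D T (ext M) = true) (l : List (Fin D.rank)) :
    (l.map M.simple).prod = 1 ↔
      ∀ a < D.rank, Orbit.follow T (l.map Fin.val).reverse (D.simple a) = D.simple a := by
  obtain ⟨hpow, hdvd⟩ := WeylGroup.coxeter_data (F := ℚ) hD hT M (ext M) (fun i j => by simp [ext]) hok
  have hb := CfsgLib.BNPair.Coxeter.bijective (WeylGroup.exchange (F := ℚ) hD) hpow hdvd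
  have hl : ∀ i ∈ l.map Fin.val, i < D.rank := fun i hi => by
    obtain ⟨a, -, rfl⟩ := List.mem_map.1 hi; exact a.2
  rw [← map_eq_one_iff _ hb.1, map_list_prod, List.map_map]
  have e : (CfsgLib.BNPair.Coxeter.hom hpow : M.Group → _) ∘ M.simple = WeylGroup.s (F := ℚ) hD :=
    funext fun i => CfsgLib.BNPair.Coxeter.hom_simple hpow i
  rw [e, WeylGroup.prod_eq_one_iff]
  have hf : ∀ a < D.rank, Orbit.follow T (l.map Fin.val).reverse (D.simple a) = N.act D (l.map Fin.val) (D.simple a) :=
    fun a ha => by
      rw [Weyl.follow_eq hD hT (fun i hi => hl i (List.mem_reverse.1 hi)) (Rel.simple_lt hD ha), List.reverse_reverse]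
  refine ⟨fun h a ha => (hf a ha).trans (h _ (Rel.simple_lt hD ha)), fun h => ?_⟩
  refine Weyl.same_nil_of_pos hD hl fun r hr => Weyl.pos_of_simple_pos hD hl hr fun a ha _ => ?_
  rw [← hf a ha, h a ha]
  exact N.simple_pos hD ha

theorem eq_of_same (hD : D ∈ dataList) {T : Tables.Tab} (hT : Tables.Valid D T) (M : CoxeterMatrix (Fin D.rank))
    (hok : WeylGroup.matrixOK D T (ext M) = true) (l m : List (Fin D.rank))
    (h : same D T (l.map Fin.val) (m.map Fin.val) = true) : (l.map M.simple).prod = (m.map M.simple).prod := by
  simp only [same, List.all_eq_true, List.mem_range, beq_iff_eq] at h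
  have h1 := (eq_one_iff hD hT M hok (l ++ m.reverse)).2 fun a ha => by
    rw [List.map_append, List.map_reverse]; exact h a ha
  rw [List.map_append, List.prod_append, prod_reverse, mul_inv_eq_one] at h1
  exact h1

/-- a power of a word as a word -/
def powWord {α : Type*} (l : List α) : ℕ → List α
  | 0 => []
  | n + 1 => l ++ powWord l n

theorem prod_powWord {α G : Type*} [Monoid G] (f : α → G) (l : List α) :
    ∀ n, ((powWord l n).map f).prod = (l.map f).prod ^ n
  | 0 => by simp [powWord]
  | n + 1 => by rw [powWord, List.map_append, List.prod_append, prod_powWord f l n, pow_succ']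

end CfsgLib.Chev.CoxeterWord
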